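import Cfsg.Agent.AltTwoPrimes.Primes
import Cfsg.Agent.Hall.Basic

/-! A group with the order and element orders of `A_n` has a simple chief factor carrying the large primes. -/

namespace CfsgLib.AltSpec

/-- An odd prime `t` with `t ≤ n ≤ 2 t`. -/
def Big (n t : ℕ) : Prop := t.Prime ∧ 3 ≤ t ∧ t ≤ n ∧ n ≤ 2 * t

variable {n : ℕ} {G : Type*} [Group G] [Finite G]
  (hcard : Nat.card G = Nat.card ↥(alternatingGroup (Fin n)))
  (hspec : Set.range (fun g : G => orderOf g) = Set.range (fun g : alternatingGroup (Fin n) => orderOf g))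

theorem not_pow_succ_dvd_factorial {t k : ℕ} (ht : t.Prime) (hlt : n < t * t) (hk : n < k * t) (hk0 : 0 < k) :
    ¬ t ^ k ∣ n.factorial := by
  haveI : Fact t.Prime := ⟨ht⟩
  intro h
  rw [padicValNat_dvd_iff_le (Nat.factorial_ne_zero n)] at h
  have hlog : Nat.log t n < 2 := Nat.log_lt_of_lt_pow' (by norm_num) (by rw [sq]; exact hlt)
  rw [padicValNat_factorial hlog, Finset.sum_Ico_eq_sum_range] at h
  simp at h
  have h2 := (Nat.le_div_iff_mul_le ht.pos).1 h
  omega

include hcard in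
theorem not_sq_dvd {t : ℕ} (ht : t.Prime) (hn : 2 ≤ n) (hlt : n < 2 * t) : ¬ t ^ 2 ∣ Nat.card G := by
  intro h
  refine not_pow_succ_dvd_factorial (n := n) (k := 2) ht ?_ hlt two_pos (h.trans ?_)
  · nlinarith [ht.two_le]
  · haveI : Nontrivial (Fin n) := Fin.nontrivial_iff_two_le.2 hn
    rw [hcard, ← Nat.card_fin n, ← Nat.card_perm, ← two_mul_nat_card_alternatingGroup, Nat.card_fin]
    exact dvd_mul_left _ _

include hcard in
theorem not_cube_dvd {t : ℕ} (ht : Big n t) : ¬ t ^ 3 ∣ Nat.card G := by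
  obtain ⟨ht, h3, hle, h2⟩ := ht
  intro h
  refine not_pow_succ_dvd_factorial (n := n) (k := 3) ht (by nlinarith) (by omega) (by norm_num) (h.trans ?_)
  haveI : Nontrivial (Fin n) := Fin.nontrivial_iff_two_le.2 (by omega)
  rw [hcard, ← Nat.card_fin n, ← Nat.card_perm, ← two_mul_nat_card_alternatingGroup, Nat.card_fin]
  exact dvd_mul_left _ _

include hspec in
theorem no_commute {t s : ℕ} (ht : t.Prime) (hs : s.Prime) (hne : t ≠ s) (hn : n < t + s) {x y : G}
    (hx : orderOf x = t) (hy : orderOf y = s) : ¬ Commute x y := by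
  intro hc
  have ho : orderOf (x * y) = t * s := by
    rw [← hx, ← hy]
    exact hc.orderOf_mul_eq_mul_orderOf_of_coprime (by rw [hx, hy]; exact (Nat.coprime_primes ht hs).2 hne)
  obtain ⟨⟨σ, hσ⟩, hσo⟩ : t * s ∈ Set.range (fun g : alternatingGroup (Fin n) => orderOf g) :=
    hspec ▸ ⟨x * y, ho⟩
  have hσo' : orderOf σ = t * s := by rw [← hσo]; exact (Subgroup.orderOf_mk σ hσ).symm
  have hmem : ∀ r : ℕ, r.Prime → r ∣ t * s → ∃ c ∈ σ.cycleType, r ∣ c := by
    intro r hr hdvd
    by_contra hno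
    push Not at hno
    have hdiv : σ.cycleType.lcm ∣ t * s / r := Multiset.lcm_dvd.2 fun c hc' => by
      have h1 : c ∣ r * (t * s / r) := by
        rw [Nat.mul_div_cancel' hdvd, ← hσo']
        exact Equiv.Perm.dvd_of_mem_cycleType hc'
      exact (Nat.Coprime.dvd_mul_left ((hr.coprime_iff_not_dvd.2 (hno c hc')).symm)).1 h1
    rw [Equiv.Perm.lcm_cycleType, hσo'] at hdiv
    have hpos : 0 < t * s := Nat.mul_pos ht.pos hs.pos
    have := Nat.le_of_dvd (Nat.div_pos (Nat.le_of_dvd hpos hdvd) hr.pos) hdiv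
    exact absurd this (not_le.2 (Nat.div_lt_self hpos hr.one_lt))
  obtain ⟨c, hc1, hct⟩ := hmem t ht (dvd_mul_right t s)
  obtain ⟨d, hd1, hds⟩ := hmem s hs (dvd_mul_left s t)
  have hsum : σ.cycleType.sum ≤ n := by
    simpa using σ.sum_cycleType_le
  have hcpos : 2 ≤ c := Equiv.Perm.two_le_of_mem_cycleType hc1
  have hdpos : 2 ≤ d := Equiv.Perm.two_le_of_mem_cycleType hd1
  by_cases hcd : c = d
  · subst hcd
    have h1 : t * s ≤ c := Nat.le_of_dvd (by omega)
      (Nat.Coprime.mul_dvd_of_dvd_of_dvd ((Nat.coprime_primes ht hs).2 hne) hct hds)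
    have h2 := Multiset.le_sum_of_mem hc1
    nlinarith [ht.two_le, hs.two_le]
  · obtain ⟨m, hm⟩ := Multiset.exists_cons_of_mem hc1
    have hd2 : d ∈ m := by
      rw [hm, Multiset.mem_cons] at hd1
      exact hd1.resolve_left (Ne.symm hcd)
    have h2 := Multiset.le_sum_of_mem hd2
    rw [hm, Multiset.sum_cons] at hsum
    have := Nat.le_of_dvd (by omega) hct
    have := Nat.le_of_dvd (by omega) hds
    omega

omit [Finite G] in
/-- The congruence for an element of prime order normalising a finite subgroup. -/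
theorem dvd_card_sub_one {r : ℕ} [Fact r.Prime] (x : G) (hx : orderOf x = r) (S : Subgroup G) [Finite S]
    (hnorm : x ∈ Subgroup.normalizer (S : Set G)) (hfree : ∀ y ∈ S, Commute x y → y = 1) :
    r ∣ Nat.card S - 1 := by
  classical
  letI : MulAction (Subgroup.zpowers x) S :=
    { smul := fun g y => ⟨(g : G) * y * (g : G)⁻¹,
        (Subgroup.mem_normalizer_iff.1 (Subgroup.zpowers_le.2 hnorm g.2) y).1 y.2⟩
      one_smul := fun y => Subtype.ext (by show (1 : G) * y * (1 : G)⁻¹ = y; group)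
      mul_smul := fun g h y => Subtype.ext (by
        show ((g : G) * h) * y * ((g : G) * h)⁻¹ = (g : G) * ((h : G) * y * (h : G)⁻¹) * (g : G)⁻¹
        group) }
  have hp : IsPGroup r (Subgroup.zpowers x) :=
    IsPGroup.of_card (n := 1) (by rw [Nat.card_zpowers, hx, pow_one])
  have h := hp.card_modEq_card_fixedPoints (α := S)
  have hfix : MulAction.fixedPoints (Subgroup.zpowers x) S = {1} := by
    ext y
    constructor
    · intro hy
      have h1 : x * (y : G) * x⁻¹ = y := congrArg Subtype.val (hy ⟨x, Subgroup.mem_zpowers x⟩)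
      exact Subtype.ext (hfree y y.2 (mul_inv_eq_iff_eq_mul.1 h1))
    · rintro rfl g
      exact Subtype.ext (show (g : G) * 1 * (g : G)⁻¹ = 1 by group)
  rw [hfix, Nat.card_unique (α := ({1} : Set S))] at h
  exact (Nat.modEq_iff_dvd' (Nat.card_pos)).1 h.symm

include hcard hspec in
/-- An element of order `q` normalises no nontrivial `t`-subgroup. -/
theorem no_normalize {t q : ℕ} (ht : Big n t) (hq : Big n q) (hne : t ≠ q) (x : G) (hx : orderOf x = q)
    (S : Subgroup G) (hS : IsPGroup t S) (hSne : S ≠ ⊥) (hnorm : x ∈ Subgroup.normalizer (S : Set G)) :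
    False := by
  haveI : Fact q.Prime := ⟨hq.1⟩
  haveI : Fact t.Prime := ⟨ht.1⟩
  have hlt : n < t + q := by have := ht.2.2.2; have := hq.2.2.2; omega
  have hfree : ∀ y ∈ S, Commute x y → y = 1 := by
    intro y hy hc
    by_contra hy1
    obtain ⟨k, hk⟩ := hS ⟨y, hy⟩
    obtain ⟨j, -, hj⟩ := (Nat.dvd_prime_pow ht.1).1 (orderOf_dvd_of_pow_eq_one (congrArg Subtype.val hk))
    have hj0 : j ≠ 0 := fun h => hy1 (orderOf_eq_one_iff.1 (by rw [hj, h, pow_zero]))
    obtain ⟨i, rfl⟩ := Nat.exists_eq_succ_of_ne_zero hj0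
    refine no_commute hspec ht.1 hq.1 hne hlt (x := y ^ t ^ i) ?_ hx (hc.symm.pow_left _)
    have hj' : orderOf (⟨y, hy⟩ : S) = t ^ (i + 1) := by rw [Subgroup.orderOf_mk]; exact hj
    rw [orderOf_pow' _ (pow_ne_zero _ ht.1.ne_zero), hj, pow_succ, Nat.gcd_mul_right_left,
      Nat.mul_div_cancel_left _ (pow_pos ht.1.pos i)]
  have hd := dvd_card_sub_one x hx S hnorm hfree
  obtain ⟨a, ha⟩ := IsPGroup.iff_card.1 hS
  have ha3 : a < 3 := by
    by_contra h3
    refine not_cube_dvd hcard ht ((pow_dvd_pow t (not_lt.1 h3)).trans ?_)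
    rw [← ha]; exact Subgroup.card_subgroup_dvd_card S
  have ha0 : a ≠ 0 := fun h => hSne ((Subgroup.eq_bot_iff_card S).2 (by rw [ha, h, pow_zero]))
  obtain ⟨htp, ht3, htn, htn2⟩ := ht
  obtain ⟨hqp, hq3, hqn, hqn2⟩ := hq
  have hto := htp.eq_two_or_odd.resolve_left (by omega)
  have hqo := hqp.eq_two_or_odd.resolve_left (by omega)
  have hsmall : ∀ k, q ∣ k → k ≤ 2 * q → k = 0 ∨ k = q ∨ k = 2 * q := by
    rintro _ ⟨c, rfl⟩ hle
    have : c ≤ 2 := Nat.le_of_mul_le_mul_left (by linarith) hqp.pos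
    interval_cases c <;> omega
  rw [ha] at hd
  interval_cases a
  · omega
  · rw [pow_one] at hd
    rcases hsmall _ hd (by omega) with h | h | h <;> omega
  · have h2t : 2 * t ≤ n := by
      by_contra hlt
      exact not_sq_dvd hcard htp (by omega) (by omega)
        (ha ▸ Subgroup.card_subgroup_dvd_card S)
    rw [show t ^ 2 - 1 = (t + 1) * (t - 1) by
      obtain ⟨u, rfl⟩ : ∃ u, t = u + 1 := ⟨t - 1, by omega⟩
      simp; ring_nf; omega] at hd
    rcases hqp.dvd_mul.1 hd with h | h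
    · rcases hsmall _ h (by omega) with h' | h' | h' <;> omega
    · rcases hsmall _ h (by omega) with h' | h' | h' <;> omega

include hcard hspec in
theorem exists_chief (hn : 5 ≤ n) :
    ∃ (N H : Subgroup G) (_ : N.Normal), H.Normal ∧ N < H ∧
      IsSimpleGroup (↥H ⧸ N.subgroupOf H) ∧ ¬ IsMulCommutative (↥H ⧸ N.subgroupOf H) ∧
      ∀ p : ℕ, p.Prime → n < 2 * p → p ≤ n → p ∣ Nat.card (↥H ⧸ N.subgroupOf H) := by
  classical
  obtain ⟨p, q, hpp, hqp, hpq, hqn, hn2p, -, -⟩ := CfsgLib.AltTwoPrimes.exists_primes hn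
  have hBp : Big n p := ⟨hpp, by omega, by omega, hn2p⟩
  have hBq : Big n q := ⟨hqp, by omega, hqn, by omega⟩
  have hdvdG : ∀ t, Big n t → t ∣ Nat.card G := by
    intro t ht
    haveI : Nontrivial (Fin n) := Fin.nontrivial_iff_two_le.2 (by omega)
    have h : t ∣ n.factorial := Nat.dvd_factorial ht.1.pos ht.2.2.1
    rw [← Nat.card_fin n, ← Nat.card_perm, ← two_mul_nat_card_alternatingGroup, ← hcard] at h
    exact ((Nat.Coprime.dvd_mul_left ((Nat.coprime_primes ht.1 Nat.prime_two).2 (by have := ht.2.1; omega))).1 h)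
  haveI : Fact q.Prime := ⟨hqp⟩
  obtain ⟨N, ⟨hNn, hNq⟩, hNmax⟩ := (Set.toFinite {N : Subgroup G | N.Normal ∧ ¬ q ∣ Nat.card N}).exists_maximal
    ⟨⊥, inferInstance, by rw [Subgroup.card_bot]; exact hqp.not_dvd_one⟩
  haveI := hNn
  obtain ⟨H, ⟨hHn, hNH, hHq⟩, hHmin⟩ :=
    (Set.toFinite {H : Subgroup G | H.Normal ∧ N ≤ H ∧ q ∣ Nat.card H}).exists_minimal
      ⟨⊤, inferInstance, le_top, by rw [Subgroup.card_top]; exact hdvdG q hBq⟩
  haveI := hHn
  have hsq : ∀ K : Subgroup G, ¬ q ^ 2 ∣ Nat.card K := fun K h =>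
    not_sq_dvd hcard hqp (by omega) (by omega) (h.trans (Subgroup.card_subgroup_dvd_card K))
  -- no big prime divides `N`
  have hN : ∀ t, Big n t → ¬ t ∣ Nat.card N := by
    intro t ht hdvd
    by_cases htq : t = q
    · exact hNq (htq ▸ hdvd)
    haveI : Fact t.Prime := ⟨ht.1⟩
    obtain ⟨S⟩ : Nonempty (Sylow t N) := inferInstance
    have htop := S.normalizer_sup_eq_top
    set S' : Subgroup G := (S : Subgroup N).map N.subtype with hS'
    have hcardN : q ∣ Nat.card (Subgroup.normalizer (S' : Set G)) := by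
      have h1 := CfsgLib.Hall.card_sup_mul_card_inf N (Subgroup.normalizer (S' : Set G))
      rw [sup_comm, htop, Subgroup.card_top] at h1
      have h2 : q ∣ Nat.card N * Nat.card (Subgroup.normalizer (S' : Set G)) :=
        h1 ▸ dvd_mul_of_dvd_left (hdvdG q hBq) _
      exact (hqp.dvd_mul.1 h2).resolve_left hNq
    obtain ⟨x, hx⟩ := exists_prime_orderOf_dvd_card' q hcardN
    refine no_normalize hcard hspec ht hBq htq (x : G) (by rw [Subgroup.orderOf_coe, hx]) S'
      (S.2.map N.subtype) ?_ x.2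
    intro hb
    have h1 := S.dvd_card_of_dvd_card hdvd
    rw [← Subgroup.card_map_of_injective N.subtype_injective, ← hS', hb, Subgroup.card_bot] at h1
    exact ht.1.not_dvd_one h1
  -- every big prime divides `H`
  have hH : ∀ t, Big n t → t ∣ Nat.card H := by
    intro t ht
    by_cases htq : t = q
    · exact htq ▸ hHq
    haveI : Fact t.Prime := ⟨ht.1⟩
    by_contra hno
    obtain ⟨Q⟩ : Nonempty (Sylow q H) := inferInstance
    have htop := Q.normalizer_sup_eq_top
    set Q' : Subgroup G := (Q : Subgroup H).map H.subtype with hQ'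
    have hdvd : t ∣ Nat.card (Subgroup.normalizer (Q' : Set G)) := by
      have h1 := CfsgLib.Hall.card_sup_mul_card_inf H (Subgroup.normalizer (Q' : Set G))
      rw [sup_comm, htop, Subgroup.card_top] at h1
      have h2 : t ∣ Nat.card H * Nat.card (Subgroup.normalizer (Q' : Set G)) :=
        h1 ▸ dvd_mul_of_dvd_left (hdvdG t ht) _
      exact (ht.1.dvd_mul.1 h2).resolve_left hno
    obtain ⟨y, hy⟩ := exists_prime_orderOf_dvd_card' t hdvd
    refine no_normalize hcard hspec hBq ht (Ne.symm htq) (y : G) (by rw [Subgroup.orderOf_coe, hy]) Q'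
      (Q.2.map H.subtype) ?_ y.2
    intro hb
    have h1 := Q.dvd_card_of_dvd_card hHq
    rw [← Subgroup.card_map_of_injective H.subtype_injective, ← hQ', hb, Subgroup.card_bot] at h1
    exact hqp.not_dvd_one h1
  have hlt : N < H := lt_of_le_of_ne hNH fun h => hNq (by rw [h]; exact hHq)
  set N' : Subgroup H := N.subgroupOf H with hN'
  have hN'card : Nat.card N' = Nat.card N := Nat.card_congr (Subgroup.subgroupOfEquivOfLe hNH).toEquiv
  have hquot : ∀ t, Big n t → t ∣ Nat.card (↥H ⧸ N') := by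
    intro t ht
    have h1 := hH t ht
    rw [Subgroup.card_eq_card_quotient_mul_card_subgroup N', hN'card] at h1
    exact (ht.1.dvd_mul.1 h1).resolve_right (hN t ht)
  have hnt : Nontrivial (↥H ⧸ N') := Finite.one_lt_card_iff_nontrivial.1
    (lt_of_lt_of_le hqp.one_lt (Nat.le_of_dvd Nat.card_pos (hquot q hBq)))
  -- the largest normal subgroup of `H` of order prime to `q` is `N`
  have hmul : ∀ K L : Subgroup H, K.Normal → ¬ q ∣ Nat.card K → ¬ q ∣ Nat.card L → ¬ q ∣ Nat.card (K ⊔ L : Subgroup H) := by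
    intro K L hK h1 h2 h3
    haveI := hK
    have h := CfsgLib.Hall.card_sup_mul_card_inf K L
    have : q ∣ Nat.card K * Nat.card L := h ▸ dvd_mul_of_dvd_left h3 _
    exact (hqp.dvd_mul.1 this).elim h1 h2
  obtain ⟨M, ⟨hMn, hMq⟩, hMmax⟩ := (Set.toFinite {K : Subgroup H | K.Normal ∧ ¬ q ∣ Nat.card K}).exists_maximal
    ⟨N', inferInstance, by rw [hN'card]; exact hNq⟩
  haveI := hMn
  have hMle : ∀ K : Subgroup H, K.Normal → ¬ q ∣ Nat.card K → K ≤ M := fun K hK hKq => by
    haveI := hK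
    exact le_sup_right.trans (hMmax ⟨inferInstance, hmul M K hMn hMq hKq⟩ le_sup_left)
  have hMN : M ≤ N' := by
    set M' : Subgroup G := M.map H.subtype with hM'
    have hMn' : M'.Normal := by
      refine ⟨?_⟩
      rintro _ ⟨m, hm, rfl⟩ g
      let φ : MulAut H := MulAut.conjNormal g
      have hcard' : ¬ q ∣ Nat.card (M.map φ.toMonoidHom) := by
        rw [← Nat.card_congr (M.equivMapOfInjective φ.toMonoidHom φ.injective).toEquiv]; exact hMq
      have hle := hMle _ (Subgroup.Normal.map hMn φ.toMonoidHom φ.surjective) hcard'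
      exact ⟨φ m, hle ⟨m, hm, rfl⟩, MulAut.conjNormal_apply _ _⟩
    have hsup : N ≤ M' := by
      intro x hx
      exact ⟨⟨x, hNH hx⟩, hMle N' inferInstance (by rw [hN'card]; exact hNq) hx, rfl⟩
    have hle : M' ≤ N := hNmax ⟨hMn', by rw [hM', Subgroup.card_map_of_injective H.subtype_injective]; exact hMq⟩ hsup
    exact fun x hx => hle ⟨x, hx, rfl⟩
  have hsimple : IsSimpleGroup (↥H ⧸ N') := by
    haveI := hnt
    refine ⟨fun K hK => ?_⟩
    set L := K.comap (QuotientGroup.mk' N') with hL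
    haveI hLn : L.Normal := hK.comap _
    by_cases hLq : q ∣ Nat.card L
    · right
      -- every element of order `q` lies in `L`
      have hLidx : ¬ q ∣ L.index := fun h => hsq H (by
        rw [sq, ← Subgroup.card_mul_index L]; exact mul_dvd_mul hLq h)
      have hel : ∀ x : H, orderOf x = q → x ∈ L := fun x hx => by
        have h1 : orderOf (QuotientGroup.mk' L x) ∣ q := hx ▸ orderOf_map_dvd _ x
        rcases hqp.eq_one_or_self_of_dvd _ h1 with h | h
        · exact (QuotientGroup.eq_one_iff x).1 (orderOf_eq_one_iff.1 h)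
        · exact absurd (h ▸ orderOf_dvd_natCard (QuotientGroup.mk' L x)) hLidx
      let E : Subgroup G := N ⊔ Subgroup.normalClosure {g : G | g ∈ H ∧ orderOf g = q}
      have hEH : E ≤ H := sup_le hNH (Subgroup.normalClosure_le_normal fun g hg => hg.1)
      have hEq : q ∣ Nat.card E := by
        obtain ⟨x, hx⟩ := exists_prime_orderOf_dvd_card' q hHq
        have hxE : (x : G) ∈ E := Subgroup.mem_sup_right
          (Subgroup.subset_normalClosure ⟨x.2, by rw [Subgroup.orderOf_coe, hx]⟩)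
        have := Subgroup.orderOf_dvd_natCard E hxE
        rwa [Subgroup.orderOf_coe, hx] at this
      have hHE : H ≤ E := hHmin ⟨inferInstance, le_sup_left, hEq⟩ hEH
      have hNL : N' ≤ L := fun x hx => by
        rw [hL, Subgroup.mem_comap, QuotientGroup.mk'_apply, (QuotientGroup.eq_one_iff x).2 hx]
        exact one_mem _
      -- conjugates of elements of order `q` again have order `q`
      have hgen : E ≤ L.map H.subtype := by
        refine sup_le (fun x hx => ⟨⟨x, hNH hx⟩, hNL hx, rfl⟩) ?_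
        rw [Subgroup.normalClosure, Subgroup.closure_le]
        intro y hy
        obtain ⟨g, ⟨hgH, hgo⟩, hc⟩ := Group.mem_conjugatesOfSet_iff.1 hy
        obtain ⟨c, rfl⟩ := isConj_iff.1 hc
        refine ⟨⟨c * g * c⁻¹, hHn.conj_mem g hgH c⟩, hel _ ?_, rfl⟩
        rw [Subgroup.orderOf_mk, ← MulAut.conj_apply, MulEquiv.orderOf_eq, hgo]
      rw [eq_top_iff]
      intro z _
      obtain ⟨x, rfl⟩ := QuotientGroup.mk'_surjective N' z
      obtain ⟨x', hx', e⟩ := hgen (hHE x.2)
      rw [Subtype.ext e] at hx'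
      exact hx'
    · left
      rw [Subgroup.eq_bot_iff_forall]
      intro z hz
      obtain ⟨x, rfl⟩ := QuotientGroup.mk'_surjective N' z
      exact (QuotientGroup.eq_one_iff x).2 (hMN (hMle L hLn hLq hz))
  refine ⟨N, H, hNn, hHn, hlt, hsimple, ?_, fun t ht h1 h2 => hquot t ⟨ht, by omega, h2, h1.le⟩⟩
  intro hcomm
  haveI := hsimple
  letI : CommGroup (↥H ⧸ N') := { (inferInstance : Group (↥H ⧸ N')) with mul_comm := hcomm.is_comm.comm }
  have hprime : (Nat.card (↥H ⧸ N')).Prime := IsSimpleGroup.prime_card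
  exact hpq.ne (((Nat.prime_dvd_prime_iff_eq hpp hprime).1 (hquot p hBp)).trans
    ((Nat.prime_dvd_prime_iff_eq hqp hprime).1 (hquot q hBq)).symm)

end CfsgLib.AltSpec
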